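import Cfsg.Agent.GeoClasses.UnitParabolic
import Cfsg.Agent.GeoClasses.UnitNondeg
import Cfsg.Agent.GeoClasses.UnitTotDecomp
import Cfsg.Agent.GeoClasses.UnitSubfield
import Cfsg.Agent.GeoClasses.UnitRealSubfield
import Cfsg.Agent.DecompMax.UnitFrame
import Cfsg.Agent.DecompMax.UnitTop

/-!
The members of the classes C1, C2 and C5 of `SU_12(q)` are maximal.
-/

set_option autoImplicit false

namespace Cfsg.Agent.SU12

open Cfsg.Geo

variable {F : Type*} [Field F] [Fintype F] {q : ℕ}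

/-- Stabilisers of subspaces, totally singular and non-degenerate. -/
theorem subspace_maximal (hF : Fintype.card F = q ^ 2) :
    (∀ W : Submodule F (Fin 12 → F), W ≠ ⊥ → IsTotallySingularFor (Cfsg.hermForm 12 F q) W →
      IsMaximalIn (Cfsg.GU 12 F q ⊓ specialLinear (Fin 12) F)
        (subspaceStabilizer W ⊓ (Cfsg.GU 12 F q ⊓ specialLinear (Fin 12) F))) ∧
    (∀ W : Submodule F (Fin 12 → F), W ≠ ⊥ → IsNondegenerateOn (Cfsg.hermForm 12 F q) W →
      2 * Module.finrank F W < 12 → IsMaximalIn (Cfsg.GU 12 F q ⊓ specialLinear (Fin 12) F)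
        (subspaceStabilizer W ⊓ (Cfsg.GU 12 F q ⊓ specialLinear (Fin 12) F))) :=
  have hs := Classical.U.sqField_of_fintype hF
  ⟨fun _ h0 hW => GeoClasses.suGL_singular_maximal hs (by norm_num) h0 hW,
    fun _ h0 hW hd => GeoClasses.suGL_nondeg_maximal hs (by norm_num) h0 hW hd⟩

/-- Stabilisers of orthogonal decompositions. -/
theorem decomposition_maximal (hF : Fintype.card F = q ^ 2) {t k : ℕ}
    (hex : ¬ (k = 2 ∧ q = 2)) (D : Fin t → Submodule F (Fin 12 → F))
    (hD : IsNondegenerateMDecomposition (Cfsg.hermForm 12 F q) k D) :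
    IsMaximalIn (Cfsg.GU 12 F q ⊓ specialLinear (Fin 12) F)
      (decompositionStabilizer D ⊓ (Cfsg.GU 12 F q ⊓ specialLinear (Fin 12) F)) := by
  have hs := Classical.U.sqField_of_fintype hF
  rcases Nat.lt_or_ge k 2 with hk | hk
  · obtain rfl : k = 1 := by have := hD.decomp.pos; omega
    exact DecompMax.UF.frame_maximal hs (by norm_num) hD
  · exact DecompMax.UN.decomposition_maximal hs (by norm_num) hk hex hD

/-- Stabilisers of pairs of totally singular halves. -/
theorem totDecomp_maximal (hF : Fintype.card F = q ^ 2) (D : Fin 2 → Submodule F (Fin 12 → F))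
    (hD : IsMDecomposition 6 D) (hts : ∀ i, IsTotallySingularFor (Cfsg.hermForm 12 F q) (D i)) :
    IsMaximalIn (Cfsg.GU 12 F q ⊓ specialLinear (Fin 12) F)
      (decompositionStabilizer D ⊓ (Cfsg.GU 12 F q ⊓ specialLinear (Fin 12) F)) :=
  GeoClasses.suGL_totDecomp_maximal (Classical.U.sqField_of_fintype hF) (by norm_num) (by norm_num) hD hts

/-- Subfield groups. -/
theorem subfield_maximal (hF : Fintype.card F = q ^ 2) :
    (∀ (F₀ : Subfield F) (r : ℕ) (P : Matrix.GeneralLinearGroup (Fin 12) F), r.Prime → Odd r →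
      Fintype.card F = Nat.card F₀ ^ r → IsFormRationalStructure (Cfsg.hermForm 12 F q) F₀ 1 P →
      IsMaximalIn (Cfsg.GU 12 F q ⊓ specialLinear (Fin 12) F)
        (subfieldSubgroup F₀ P ⊓ (Cfsg.GU 12 F q ⊓ specialLinear (Fin 12) F))) ∧
    (∀ (F₀ : Subfield F) (P : Matrix.GeneralLinearGroup (Fin 12) F) (ζ : F),
      Fintype.card F = Nat.card F₀ ^ 2 → ζ ≠ 0 → ζ + ζ ^ q = 0 →
      IsFormRationalStructure (Cfsg.hermForm 12 F q) F₀ ζ P →
      (∀ u : Fin 12 → F, (∀ i, u i ∈ F₀) → (Cfsg.hermForm 12 F q)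
        (Matrix.mulVec (P : Matrix (Fin 12) (Fin 12) F) u) (Matrix.mulVec (P : Matrix (Fin 12) (Fin 12) F) u) = 0) →
      IsMaximalIn (Cfsg.GU 12 F q ⊓ specialLinear (Fin 12) F)
        (subfieldSubgroup F₀ P ⊓ (Cfsg.GU 12 F q ⊓ specialLinear (Fin 12) F))) ∧
    (Odd q → ∀ (F₀ : Subfield F) (P : Matrix.GeneralLinearGroup (Fin 12) F),
      Fintype.card F = Nat.card F₀ ^ 2 → IsFormRationalStructure (Cfsg.hermForm 12 F q) F₀ 1 P →
      IsMaximalIn (Cfsg.GU 12 F q ⊓ specialLinear (Fin 12) F)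
        (subfieldSubgroup F₀ P ⊓ (Cfsg.GU 12 F q ⊓ specialLinear (Fin 12) F))) := by
  have hs := Classical.U.sqField_of_fintype hF
  refine ⟨fun F₀ r P hr ho hc hP => GeoClasses.suGL_oddSubfield_maximal hs (by norm_num) hr ho hc hP,
    fun F₀ P ζ hc hζ0 hζ hP halt => GeoClasses.suGL_realSubfield_maximal hs (by norm_num) hc
      (GeoClasses.ratStr_symp hs (by rw [Nat.card_eq_fintype_card, hc]) hζ0 hζ hP halt),
    fun hq F₀ P hc hP => GeoClasses.suGL_realSubfield_maximal hs (by norm_num) hc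
      (GeoClasses.ratStr_orth hs (by rw [Nat.card_eq_fintype_card, hc]) ?_ hP)⟩
  rw [GeoClasses.two_ne_zero_iff_odd_card, hF]
  exact hq.pow

end Cfsg.Agent.SU12
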